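import Mathlib
import Cfsg.Agent.TcData.SY224c.I28431.Tab

set_option autoImplicit false
set_option Elab.async false
set_option maxRecDepth 100000
set_option linter.all false

namespace Cfsg.Agent.TcData.SY224c.I28431

open Cfsg.Spor Cfsg.Agent.Lib.TcFacts Cfsg.Agent.Lib.TcBits Cfsg.Agent.Lib.TcPres Cfsg.Agent.Lib.SchurDefs.Y224c Cfsg.Agent.TcData.SY224c

theorem b393 : Block F al 100608 100864 256 :=
  block_of_check (k := 8) rfl (by decide +kernel)

theorem b394 : Block F al 100864 101120 256 :=
  block_of_check (k := 8) rfl (by decide +kernel)

theorem b395 : Block F al 101120 101376 256 :=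
  block_of_check (k := 8) rfl (by decide +kernel)

theorem b396 : Block F al 101376 101632 256 :=
  block_of_check (k := 8) rfl (by decide +kernel)

theorem b397 : Block F al 101632 101888 256 :=
  block_of_check (k := 8) rfl (by decide +kernel)

theorem b398 : Block F al 101888 102144 256 :=
  block_of_check (k := 8) rfl (by decide +kernel)

theorem b399 : Block F al 102144 102400 256 :=
  block_of_check (k := 8) rfl (by decide +kernel)

theorem b400 : Block F al 102400 102656 256 :=
  block_of_check (k := 8) rfl (by decide +kernel)

theorem b401 : Block F al 102656 102912 256 :=
  block_of_check (k := 8) rfl (by decide +kernel)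

theorem b402 : Block F al 102912 103168 256 :=
  block_of_check (k := 8) rfl (by decide +kernel)

theorem b403 : Block F al 103168 103424 256 :=
  block_of_check (k := 8) rfl (by decide +kernel)

theorem b404 : Block F al 103424 103680 256 :=
  block_of_check (k := 8) rfl (by decide +kernel)

theorem b405 : Block F al 103680 103936 256 :=
  block_of_check (k := 8) rfl (by decide +kernel)

theorem b406 : Block F al 103936 104192 256 :=
  block_of_check (k := 8) rfl (by decide +kernel)

theorem b407 : Block F al 104192 104448 256 :=
  block_of_check (k := 8) rfl (by decide +kernel)

theorem b408 : Block F al 104448 104704 256 :=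
  block_of_check (k := 8) rfl (by decide +kernel)

theorem b409 : Block F al 104704 104960 256 :=
  block_of_check (k := 8) rfl (by decide +kernel)

theorem b410 : Block F al 104960 105216 256 :=
  block_of_check (k := 8) rfl (by decide +kernel)

theorem b411 : Block F al 105216 105472 256 :=
  block_of_check (k := 8) rfl (by decide +kernel)

theorem b412 : Block F al 105472 105728 256 :=
  block_of_check (k := 8) rfl (by decide +kernel)

theorem b413 : Block F al 105728 105984 256 :=
  block_of_check (k := 8) rfl (by decide +kernel)

theorem b414 : Block F al 105984 106240 256 :=
  block_of_check (k := 8) rfl (by decide +kernel)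

theorem b415 : Block F al 106240 106496 256 :=
  block_of_check (k := 8) rfl (by decide +kernel)

theorem b416 : Block F al 106496 106752 256 :=
  block_of_check (k := 8) rfl (by decide +kernel)

theorem b417 : Block F al 106752 107008 256 :=
  block_of_check (k := 8) rfl (by decide +kernel)

end Cfsg.Agent.TcData.SY224c.I28431
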