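import Mathlib
import Cfsg.Agent.TcData.SY224c.I28431.Tab

set_option autoImplicit false
set_option Elab.async false
set_option maxRecDepth 100000
set_option linter.all false

namespace Cfsg.Agent.TcData.SY224c.I28431

open Cfsg.Spor Cfsg.Agent.Lib.TcFacts Cfsg.Agent.Lib.TcBits Cfsg.Agent.Lib.TcPres Cfsg.Agent.Lib.SchurDefs.Y224c Cfsg.Agent.TcData.SY224c

theorem b418 : Block F al 107008 107264 185 :=
  block_of_check (k := 8) rfl (by decide +kernel)

end Cfsg.Agent.TcData.SY224c.I28431
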