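import Mathlib
import Cfsg.Agent.TcData.SY224c.I28431.Rep0

set_option autoImplicit false
set_option Elab.async false
set_option maxRecDepth 100000
set_option linter.all false

namespace Cfsg.Agent.TcData.SY224c.I28431

open Cfsg.Spor Cfsg.Agent.Lib.TcFacts Cfsg.Agent.Lib.TcBits Cfsg.Agent.Lib.TcPres Cfsg.Agent.Lib.SchurDefs.Y224c Cfsg.Agent.TcData.SY224c

theorem e_1 : ∀ j, j < 15 → chkW (extra.getD 1 1) j = true := by decide +kernel

theorem e_2 : ∀ j, j < 15 → chkW (extra.getD 2 1) j = true := by decide +kernel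

theorem e_3 : ∀ j, j < 15 → chkW (extra.getD 3 1) j = true := by decide +kernel

end Cfsg.Agent.TcData.SY224c.I28431
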