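import Mathlib
import Cfsg.Agent.TcData.SY224c.I28431.Blocks

set_option autoImplicit false
set_option Elab.async false
set_option maxRecDepth 100000
set_option linter.all false

namespace Cfsg.Agent.TcData.SY224c.I28431

open Cfsg.Spor Cfsg.Agent.Lib.TcFacts Cfsg.Agent.Lib.TcBits Cfsg.Agent.Lib.TcPres Cfsg.Agent.Lib.SchurDefs.Y224c Cfsg.Agent.TcData.SY224c

theorem hb : ∀ a, a ≤ 9 → base a = true →
    a < 9 ∧ PresentedGroup.mk RR (gL.getD a 1) ∈ HH := by
  intro a _ h
  have h2 : a ∈ baseL := by simpa [base] using h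
  simp only [baseL, List.mem_cons, List.not_mem_nil, or_false] at h2
  rcases h2 with rfl | rfl | rfl | rfl | rfl | rfl | rfl | rfl
  exacts [⟨by decide, mem_map_closure (s := FreeGroup.of Gen.c) (by simp)⟩,
      ⟨by decide, mem_map_closure (s := FreeGroup.of Gen.d) (by simp)⟩,
      ⟨by decide, mem_map_closure (s := FreeGroup.of Gen.e) (by simp)⟩,
      ⟨by decide, mem_map_closure (s := FreeGroup.of Gen.f) (by simp)⟩,
      ⟨by decide, mem_map_closure (s := FreeGroup.of Gen.g) (by simp)⟩,
      ⟨by decide, mem_map_closure (s := FreeGroup.of Gen.j) (by simp)⟩,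
      ⟨by decide, mem_map_closure (s := FreeGroup.of Gen.h) (by simp)⟩,
      ⟨by decide, mem_map_closure (s := FreeGroup.of Gen.i) (by simp)⟩]

theorem hmac : ∀ s ∈ macros, PresentedGroup.mk RR s ∈ HH := by
  intro s hs
  simp [macros] at hs

theorem hRels : Rels = relL.map (fun r => encW enc r.toWord) ++
    (macroRels enc 9 macros ++ pairsOf enc gensL) := by decide +kernel

theorem hw : ∀ k, k < 334 →
    rotOK Rels 9 (decW 4 15 (183 + 1) (wd k)) (hint k) = true := by
  decide +kernel

theorem h1alive : aliveB ent 9 131072 1 = true := by decide +kernel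

theorem index_le' : HH.index ≠ 0 ∧ HH.index ≤ 28431 :=
  index_le HH gL macros relL gensL enc (hℓ macros) hL hrel hmac ent pa wd side base
    9 131071 17 34 107263 4 15 8 183 131071 334 131072 1048576 28431 hlen
    (by norm_num) hb Rels hRels hint hw (by norm_num) c418 h1alive

end Cfsg.Agent.TcData.SY224c.I28431
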